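import Cfsg.Agent.Lib.Helper31.Siegel.Defs

/-!
# SIEGEL project (S5072), package [COMM1]
-/

set_option autoImplicit false
open scoped Matrix

namespace Cfsg.Agent.Lib.Helper34.Siegel

open Cfsg.Agent.Lib.Helper31.Siegel

universe u

/-- the image of a Siegel transvection pairs with `w` as expected -/
theorem B_siegel_image {n : ℕ} {F : Type u} [Field F] (p r v w : Vec n F) (c : F) :
    B (v + (c * B v r) • p - (c * B v p) • r) w =
      B v w + c * B v r * B p w - c * B v p * B r w := by
  rw [B_sub_left, B_add_left, B_smul_left, B_smul_left]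

theorem pkgComm1 : PkgComm1.{u} := by
  intro n F _ p r s t _ _ hps hpt hrs hrt c d σ τ hσ hτ
  apply ext_act
  intro v
  rw [mul_act, mul_act, hτ v, hσ v, hσ, hτ]
  rw [B_siegel_image, B_siegel_image, B_siegel_image, B_siegel_image]
  rw [B_comm s r, B_comm t r, B_comm s p, B_comm t p, hps, hpt, hrs, hrt]
  simp only [mul_zero, sub_zero, add_zero]
  abel

end Cfsg.Agent.Lib.Helper34.Siegel
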