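import Cfsg.Agent.Lib.Helper31.Siegel.Defs
import Cfsg.Agent.Lib.Helper34.Siegel.Comm1

/-!
# SIEGEL project (S5072), package [COMM2]
-/

set_option autoImplicit false
open scoped Matrix

namespace Cfsg.Agent.Lib.Helper34.Siegel

open Cfsg.Agent.Lib.Helper31.Siegel

universe u

/-- the two vectors of a singular line are perpendicular -/
theorem B_eq_zero_of_isSingLine {n : ℕ} {F : Type u} [Field F] {p r : Vec n F}
    (h : IsSingLine p r) : B p r = 0 := by
  obtain ⟨-, hp, hr, hpr⟩ := h
  unfold B
  rw [hpr, hp, hr]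
  ring

/-- a singular vector is perpendicular to itself -/
theorem B_self_eq_zero {n : ℕ} {F : Type u} [Field F] {p : Vec n F} (hp : QF n F p = 0) :
    B p p = 0 := by
  rw [B_self, hp, mul_zero]

theorem pkgComm2 : PkgComm2.{u} := by
  intro n F _ p r s hpr hps c d σ τ hσ hτ
  have h1 : B p r = 0 := B_eq_zero_of_isSingLine hpr
  have h2 : B p s = 0 := B_eq_zero_of_isSingLine hps
  have h3 : B p p = 0 := B_self_eq_zero hpr.2.1
  apply ext_act
  intro v
  rw [mul_act, mul_act, hτ v, hσ v, hσ, hτ]
  rw [B_siegel_image, B_siegel_image, B_siegel_image, B_siegel_image]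
  rw [B_comm s p, B_comm r p, B_comm s r, h1, h2, h3]
  simp only [mul_zero, sub_zero, add_zero]
  module

end Cfsg.Agent.Lib.Helper34.Siegel
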