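import Cfsg.Agent.Lib.Helper31.Siegel.Defs
import Cfsg.Agent.Lib.Helper34.Siegel.Comm2

/-!
# SIEGEL project (S5072), package [REBASE]
-/

set_option autoImplicit false
open scoped Matrix

namespace Cfsg.Agent.Lib.Helper34.Siegel

open Cfsg.Agent.Lib.Helper31.Siegel

universe u

theorem pkgRebase : PkgRebase.{u} := by
  intro n F _ p r p' r' hpr hreb
  obtain ⟨a, b, c, d, hdet, rfl, rfl⟩ := hreb
  have hB : B p r = 0 := B_eq_zero_of_isSingLine hpr
  obtain ⟨hli, hQp, hQr, hQpr⟩ := hpr
  have hQ : ∀ x y : F, QF n F (x • p + y • r) = 0 := by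
    intro x y
    rw [Q_add, Q_smul, Q_smul, B_smul_left, B_smul_right, hQp, hQr, hB]
    ring
  refine ⟨⟨?_, hQ a b, hQ c d, ?_⟩, ?_⟩
  · rw [LinearIndependent.pair_iff] at hli ⊢
    intro s t hst
    have h1 : (s * a + t * c) • p + (s * b + t * d) • r = 0 := by
      rw [← hst]
      module
    obtain ⟨e1, e2⟩ := hli _ _ h1
    have hs : s * (a * d - b * c) = 0 := by linear_combination d * e1 - c * e2
    have ht : t * (a * d - b * c) = 0 := by linear_combination a * e2 - b * e1
    exact ⟨(mul_eq_zero.mp hs).resolve_right hdet, (mul_eq_zero.mp ht).resolve_right hdet⟩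
  · have h2 : a • p + b • r + (c • p + d • r) = (a + c) • p + (b + d) • r := by module
    rw [h2]
    exact hQ _ _
  · have hfix : fixSet (a • p + b • r) (c • p + d • r) = fixSet p r := by
      ext σ
      rw [mem_fixSet, mem_fixSet]
      constructor
      · intro h v hvp hvr
        apply h v
        · rw [B_add_right, B_smul_right, B_smul_right, hvp, hvr]
          ring
        · rw [B_add_right, B_smul_right, B_smul_right, hvp, hvr]
          ring
      · intro h v hv1 hv2
        rw [B_add_right, B_smul_right, B_smul_right] at hv1 hv2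
        have e1 : B v p * (a * d - b * c) = 0 := by linear_combination d * hv1 - b * hv2
        have e2 : B v r * (a * d - b * c) = 0 := by linear_combination a * hv2 - c * hv1
        exact h v ((mul_eq_zero.mp e1).resolve_right hdet)
          ((mul_eq_zero.mp e2).resolve_right hdet)
    unfold T
    rw [hfix]

end Cfsg.Agent.Lib.Helper34.Siegel
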